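import Mathlib
import Cfsg.Agent.Lib.OMax.Refl
import Cfsg.Agent.Lib.OrthE.OrderP
import Cfsg.Agent.Lib.ClMax.SpTv

/-!
The action of `Sp₄(F)` on the five-dimensional quadratic space of traceless self-adjoint
endomorphisms (odd characteristic), and the transfer of subgroups.
-/

set_option autoImplicit false

namespace CfsgLib.Sp4O5

open CfsgLib.Forms CfsgLib.ClMax CfsgLib.OrthE CfsgLib.OMax Module QuadraticMap

variable {F V W : Type*} [Field F] [AddCommGroup V] [Module F V] [AddCommGroup W] [Module F W]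
  {B : LinearMap.BilinForm F V} {Q : QuadraticForm F W} {Ψ : W →ₗ[F] End F V} {κ : F}

/-- `Ψ` parametrises the traceless self-adjoint endomorphisms, with `Ψ x ^ 2 = κ Q x`. -/
structure Cl5 (B : LinearMap.BilinForm F V) (Q : QuadraticForm F W) (Ψ : W →ₗ[F] End F V)
    (κ : F) : Prop where
  hA : B.IsAlt
  hB : B.Nondegenerate
  nt : Nontrivial V
  h2 : (2 : F) ≠ 0
  hκ : κ ≠ 0
  hQ : Nondeg Q
  five : finrank F W = 5
  sq : ∀ x v, Ψ x (Ψ x v) = (κ * Q x) • v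
  adj : ∀ x u v, B (Ψ x u) v = B u (Ψ x v)
  tr : ∀ x, LinearMap.trace F V (Ψ x) = 0
  surj : ∀ X : End F V, (∀ u v, B (X u) v = B u (X v)) → LinearMap.trace F V X = 0 → ∃ x, Ψ x = X
  cent : ∀ X : End F V, (∀ x v, X (Ψ x v) = Ψ x (X v)) → ∃ c : F, ∀ v, X v = c • v

/-- `g` conjugates `Ψ x` to `ε Ψ (k x)`. -/
def Rel (Ψ : W →ₗ[F] End F V) (g : V ≃ₗ[F] V) (ε : F) (k : O Q) : Prop :=
  ∀ x v, g (Ψ x v) = ε • Ψ (k.1 x) (g v)

theorem Rel.mul {g g' : V ≃ₗ[F] V} {ε ε' : F} {k k' : O Q} (h : Rel Ψ g ε k) (h' : Rel Ψ g' ε' k') :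
    Rel Ψ (g * g') (ε * ε') (k * k') := fun x v => by
  rw [LinearEquiv.mul_apply, h', map_smul, h, smul_smul, mul_comm]; rfl

theorem Rel.inv {g : V ≃ₗ[F] V} {ε : F} {k : O Q} (h : Rel Ψ g ε k) (hε : ε * ε = 1) :
    Rel Ψ g⁻¹ ε k⁻¹ := fun x v => by
  rw [LinearEquiv.coe_inv, LinearEquiv.symm_apply_eq, map_smul, h, O_apply_inv_apply, smul_smul, hε]
  simp

theorem rel_one : Rel Ψ 1 1 (1 : O Q) := fun x v => by simp

theorem Rel.pow {g : V ≃ₗ[F] V} {k : O Q} (h : Rel Ψ g 1 k) (n : ℕ) : Rel Ψ (g ^ n) 1 (k ^ n) := by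
  induction n with
  | zero => exact rel_one
  | succ n ih => simpa [pow_succ] using ih.mul h

variable (Ψ Q) in
/-- The image of `M` in the orthogonal group, together with `-1`. -/
def lift (M : Subgroup (V ≃ₗ[F] V)) : Subgroup (O Q) where
  carrier := {k | ∃ g ∈ M, ∃ ε : F, ε * ε = 1 ∧ Rel Ψ g ε k}
  mul_mem' := by
    rintro k k' ⟨g, hg, ε, h1, h2⟩ ⟨g', hg', ε', h1', h2'⟩
    exact ⟨g * g', M.mul_mem hg hg', ε * ε', by rw [mul_mul_mul_comm, h1, h1', mul_one], h2.mul h2'⟩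
  one_mem' := ⟨1, M.one_mem, 1, mul_one 1, rel_one⟩
  inv_mem' := by
    rintro k ⟨g, hg, ε, h1, h2⟩
    exact ⟨g⁻¹, M.inv_mem hg, ε, h1, h2.inv h1⟩

theorem Rel.mem_lift {M : Subgroup (V ≃ₗ[F] V)} {g : V ≃ₗ[F] V} {k : O Q} (h : Rel Ψ g 1 k)
    (hg : g ∈ M) : k ∈ lift Q Ψ M := ⟨g, hg, 1, mul_one 1, h⟩

theorem anti_of_sq (h : ∀ x v, Ψ x (Ψ x v) = (κ * Q x) • v) (x y : W) (v : V) :
    Ψ x (Ψ y v) = (κ * polar Q x y) • v - Ψ y (Ψ x v) := by
  have := h (x + y) v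
  simp only [map_add, LinearMap.add_apply, h, Q_add] at this
  linear_combination (norm := module) this

theorem inj_of_sq [Nontrivial V] (hκ : κ ≠ 0) (hQ : Nondeg Q)
    (h : ∀ x v, Ψ x (Ψ x v) = (κ * Q x) • v) : Function.Injective Ψ := by
  obtain ⟨v, hv⟩ := exists_ne (0 : V)
  refine (injective_iff_map_eq_zero _).2 fun x hx => hQ x fun y => ?_
  simpa [hx, hκ, hv] using (anti_of_sq h x y v).symm

namespace Cl5

variable (h : Cl5 B Q Ψ κ)
include h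

theorem anti (x y : W) (v : V) : Ψ x (Ψ y v) = (κ * polar Q x y) • v - Ψ y (Ψ x v) :=
  anti_of_sq h.sq x y v

theorem anti0 {x y : W} (hxy : polar Q x y = 0) (v : V) : Ψ x (Ψ y v) = -Ψ y (Ψ x v) := by
  simp [h.anti x y, hxy]

theorem inj : Function.Injective Ψ := have := h.nt; inj_of_sq h.hκ h.hQ h.sq

theorem fd : FiniteDimensional F W := FiniteDimensional.of_finrank_pos (by rw [h.five]; omega)

theorem smul_cancel {a b : F} (e : ∀ v : V, a • v = b • v) : a = b := by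
  have := h.nt
  obtain ⟨v, hv⟩ := exists_ne (0 : V)
  exact smul_left_injective F hv (e v)

/-- Another parametrisation. -/
theorem transfer {W' : Type*} [AddCommGroup W'] [Module F W'] {Q' : QuadraticForm F W'}
    {Ψ' : W' →ₗ[F] End F V} {κ' : F} (hκ : κ' ≠ 0) (hQ : Nondeg Q') (five : finrank F W' = 5)
    (sq : ∀ x v, Ψ' x (Ψ' x v) = (κ' * Q' x) • v) (adj : ∀ x u v, B (Ψ' x u) v = B u (Ψ' x v))
    (tr : ∀ x, LinearMap.trace F V (Ψ' x) = 0) : Cl5 B Q' Ψ' κ' := by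
  have := h.nt
  have := h.fd
  have e : LinearMap.range Ψ' = LinearMap.range Ψ := Submodule.eq_of_le_of_finrank_eq
    (by rintro _ ⟨x, rfl⟩; exact h.surj _ (adj x) (tr x)) (by
      rw [LinearMap.finrank_range_of_inj h.inj,
        LinearMap.finrank_range_of_inj (inj_of_sq hκ hQ sq), five, h.five])
  refine ⟨h.hA, h.hB, h.nt, h.h2, hκ, hQ, five, sq, adj, tr, fun X h1 h2 => ?_,
    fun X hX => h.cent X fun x => ?_⟩
  · exact show X ∈ LinearMap.range Ψ' from e ▸ h.surj X h1 h2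
  · obtain ⟨y, hy⟩ : Ψ x ∈ LinearMap.range Ψ' := e ▸ ⟨x, rfl⟩
    exact hy ▸ hX y

theorem exists_conj {g : V ≃ₗ[F] V} (hg : g ∈ spIso B) :
    ∃ f : W →ₗ[F] W, ∀ x v, Ψ (f x) v = g (Ψ x (g.symm v)) := by
  choose f hf using fun x => h.surj (g.conj (Ψ x)) (fun u v => by
    rw [LinearEquiv.conj_apply_apply, LinearEquiv.conj_apply_apply, ← spIso_symm_left hg, h.adj,
      ← hg, LinearEquiv.apply_symm_apply]) (by rw [LinearMap.trace_conj', h.tr])
  exact ⟨⟨⟨f, fun x y => h.inj (by simp [hf])⟩, fun c x => h.inj (by simp [hf])⟩,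
    fun x v => by simp [hf, LinearEquiv.conj_apply_apply]⟩

theorem exists_rel {g : V ≃ₗ[F] V} (hg : g ∈ spIso B) : ∃ k : O Q, Rel Ψ g 1 k := by
  obtain ⟨f, hf⟩ := h.exists_conj hg
  obtain ⟨f', hf'⟩ := h.exists_conj ((spIso B).inv_mem hg)
  refine ⟨mkO f f' (fun x => h.inj (LinearMap.ext fun v => ?_))
    (fun x => h.inj (LinearMap.ext fun v => ?_)) fun x => ?_, fun x v => by simp [mkO_apply, hf]⟩
  · simp [hf, hf', LinearEquiv.coe_inv, show g⁻¹.symm = g from rfl]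
  · simp [hf, hf', LinearEquiv.coe_inv, show g⁻¹.symm = g from rfl]
  · refine mul_left_cancel₀ h.hκ (h.smul_cancel fun v => ?_)
    rw [← h.sq, hf, hf]
    simp [h.sq]

/-- The involution attached to a vector of norm `κ⁻¹`. -/
theorem exists_invol {x : W} (hx : κ * Q x = 1) : ∃ t ∈ spIso B, ∀ v, t v = Ψ x v :=
  ⟨LinearEquiv.ofLinearMap (Ψ x) (Ψ x) (LinearMap.ext fun v => by simp [h.sq, hx])
    (LinearMap.ext fun v => by simp [h.sq, hx]),
    fun u v => by simp [h.adj, h.sq, hx], fun _ => rfl⟩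

theorem rel_refl {t : V ≃ₗ[F] V} {x : W} (hx : Q x ≠ 0) (e : ∀ v, t v = Ψ x v) :
    Rel Ψ t (-1) (refl Q x) := fun y v => by
  rw [e, e, refl_ap, h.anti x y]
  simp only [map_sub, map_smul, LinearMap.sub_apply, LinearMap.smul_apply, h.sq, smul_smul]
  rw [show (Q x)⁻¹ * polar Q x y * (κ * Q x) = κ * polar Q x y by field_simp]
  module

theorem rc {M : Subgroup (V ≃ₗ[F] V)} {t : V ≃ₗ[F] V} (ht : t ∈ M) {x : W} (hx : Q x ≠ 0)
    (e : ∀ v, t v = Ψ x v) : RC (lift Q Ψ M) x :=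
  ⟨hx, t, ht, -1, by simp, h.rel_refl hx e⟩

theorem exists_eich {z a : W} (hz : Q z = 0) (ha : polar Q z a = 0) :
    ∃ s ∈ spIso B, (∀ v, s v = v + κ⁻¹ • Ψ z (Ψ a v)) ∧ Rel Ψ s 1 (eich Q z a) := by
  have zz : ∀ v, Ψ z (Ψ z v) = 0 := fun v => by simp [h.sq, hz]
  have az : ∀ v, Ψ a (Ψ z v) = -Ψ z (Ψ a v) := h.anti0 (pc ha)
  have hκ := h.hκ
  refine ⟨LinearEquiv.ofLinearMap (1 + κ⁻¹ • (Ψ z * Ψ a)) (1 - κ⁻¹ • (Ψ z * Ψ a))
    (LinearMap.ext fun v => by simp [az, zz]) (LinearMap.ext fun v => by simp [az, zz]),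
    fun u v => by simp [h.adj, az, zz], fun v => by simp, fun y v => ?_⟩
  rw [eich_ap hz ha]
  simp only [LinearEquiv.coe_ofLinearMap, LinearMap.add_apply, LinearMap.smul_apply, End.one_apply,
    End.mul_apply, map_add, map_sub, map_smul, LinearMap.sub_apply, zz, az, h.sq, h.anti a y,
    h.anti z y, map_neg]
  match_scalars <;> (field_simp; try ring)

theorem exists_lift {k : O Q} (hk : k ∈ E Q) : ∃ s ∈ spIso B, Rel Ψ s 1 k := by
  induction hk using Subgroup.closure_induction with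
  | mem k hk =>
    obtain ⟨z, a, rfl⟩ := hk
    by_cases h0 : Q z = 0 ∧ polar Q z a = 0
    · obtain ⟨s, h1, -, h2⟩ := h.exists_eich h0.1 h0.2
      exact ⟨s, h1, h2⟩
    · rw [eich_of_not h0]
      exact ⟨1, one_mem _, rel_one⟩
  | one => exact ⟨1, one_mem _, rel_one⟩
  | mul a b _ _ ha hb =>
    obtain ⟨s, h1, h2⟩ := ha
    obtain ⟨t, h3, h4⟩ := hb
    exact ⟨s * t, mul_mem h1 h3, by simpa using h2.mul h4⟩
  | inv a _ ha =>
    obtain ⟨s, h1, h2⟩ := ha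
    exact ⟨s⁻¹, inv_mem h1, h2.inv (mul_one 1)⟩

/-- The kernel of the action is `±1`. -/
theorem mem_of_rel {M : Subgroup (V ≃ₗ[F] V)} (hM : M ≤ spIso B) (hn : LinearEquiv.neg F ∈ M)
    {g m : V ≃ₗ[F] V} (hg : g ∈ spIso B) (hm : m ∈ M) {k : O Q} (h1 : Rel Ψ g 1 k)
    (h3 : Rel Ψ m 1 k) : g ∈ M := by
  have h4 := h1.mul (h3.inv (mul_one 1))
  obtain ⟨c, hc⟩ := h.cent (g * m⁻¹ : V ≃ₗ[F] V) fun x v => by simpa using h4 x v
  have hc : ∀ v, (g * m⁻¹) v = c • v := hc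
  have := h.nt
  obtain ⟨u, hu⟩ := exists_ne (0 : V)
  obtain ⟨v, hv⟩ : ∃ v, B u v ≠ 0 := by
    by_contra hh
    push Not at hh
    exact hu (h.hB.1 u hh)
  have h5 := mul_mem hg (inv_mem (hM hm)) u v
  simp only [hc, map_smul, LinearMap.smul_apply, smul_eq_mul] at h5
  rw [← mul_mem_cancel_right (inv_mem hm)]
  rcases mul_self_eq_one_iff.1 (mul_right_cancel₀ hv (by linear_combination h5) : c * c = 1)
    with rfl | rfl
  · exact (LinearEquiv.ext fun v => by simp [hc] : (1 : V ≃ₗ[F] V) = g * m⁻¹) ▸ M.one_mem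
  · exact (LinearEquiv.ext fun v => by simp [hc] : LinearEquiv.neg F = g * m⁻¹) ▸ hn

theorem full [Finite F] {M : Subgroup (V ≃ₗ[F] V)} (hM : M ≤ spIso B)
    (hn : LinearEquiv.neg F ∈ M) (hE : E Q ≤ lift Q Ψ M) (x : V) : Full B M x := fun d => by
  have := h.fd
  obtain ⟨k, hk⟩ := h.exists_rel (tv_mem h.hA x (d / 8))
  have h4 : k ^ 4 ∈ E Q := by
    rw [E_eq h.hQ h.five.ge, ← index_commutator_O_of_two_ne_zero h.hQ h.h2 (by rw [h.five]; omega)]
    exact Subgroup.pow_index_mem _ k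
  obtain ⟨m, hm, ε, h1, h3⟩ := hE h4
  have h5 := h3.mul h3
  have h6 := (hk.pow 4).mul (hk.pow 4)
  rw [h1] at h5
  rw [mul_one] at h6
  refine ⟨_, h.mem_of_rel hM hn (mul_mem (pow_mem (tv_mem _ _ _) 4) (pow_mem (tv_mem _ _ _) 4))
    (mul_mem hm hm) h6 h5, fun v => ?_⟩
  have h8 : (8 : F) ≠ 0 := by
    rw [show (8 : F) = 2 * 2 * 2 by norm_num]; simp [h.h2]
  simp only [pow_succ, pow_zero, one_mul, LinearEquiv.mul_apply, tv_apply, map_add, map_smul,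
    h.hA.self_eq_zero]
  match_scalars <;> (field_simp; try ring)

end Cl5

/-! ### The standard model -/

/-- The form `x₀² + x₁ x₂ - x₃ x₄`. -/
def q5 (F : Type*) [Field F] : QuadraticForm F (Fin 5 → F) :=
  QuadraticMap.proj 0 0 + QuadraticMap.proj 1 2 - QuadraticMap.proj 3 4

theorem q5_apply (x : Fin 5 → F) : q5 F x = x 0 * x 0 + x 1 * x 2 - x 3 * x 4 := rfl

/-- The traceless self-adjoint matrices. -/
def psi5 (F : Type*) [Field F] : (Fin 5 → F) →ₗ[F] End F (Fin 2 ⊕ Fin 2 → F) :=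
  LinearMap.mk₂ F (fun x v => Sum.elim
      ![x 0 * v (.inl 0) + x 1 * v (.inl 1) + x 3 * v (.inr 1),
        x 2 * v (.inl 0) - x 0 * v (.inl 1) - x 3 * v (.inr 0)]
      ![x 4 * v (.inl 1) + x 0 * v (.inr 0) + x 2 * v (.inr 1),
        -(x 4 * v (.inl 0)) + x 1 * v (.inr 0) - x 0 * v (.inr 1)])
    (fun _ _ _ => by ext (i | i) <;> fin_cases i <;> simp <;> ring)
    (fun _ _ _ => by ext (i | i) <;> fin_cases i <;> simp <;> ring)
    (fun _ _ _ => by ext (i | i) <;> fin_cases i <;> simp <;> ring)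
    (fun _ _ _ => by ext (i | i) <;> fin_cases i <;> simp <;> ring)

theorem psi5_apply (x : Fin 5 → F) (v : Fin 2 ⊕ Fin 2 → F) : psi5 F x v = Sum.elim
      ![x 0 * v (.inl 0) + x 1 * v (.inl 1) + x 3 * v (.inr 1),
        x 2 * v (.inl 0) - x 0 * v (.inl 1) - x 3 * v (.inr 0)]
      ![x 4 * v (.inl 1) + x 0 * v (.inr 0) + x 2 * v (.inr 1),
        -(x 4 * v (.inl 0)) + x 1 * v (.inr 0) - x 0 * v (.inr 1)] := rfl

theorem exists_mat (X : End F (Fin 2 ⊕ Fin 2 → F)) : ∃ A : Fin 2 ⊕ Fin 2 → Fin 2 ⊕ Fin 2 → F,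
    (∀ v i, X v i = A i (.inl 0) * v (.inl 0) + A i (.inl 1) * v (.inl 1) +
      A i (.inr 0) * v (.inr 0) + A i (.inr 1) * v (.inr 1)) ∧ LinearMap.trace F _ X =
      A (.inl 0) (.inl 0) + A (.inl 1) (.inl 1) + A (.inr 0) (.inr 0) + A (.inr 1) (.inr 1) := by
  obtain ⟨A, rfl⟩ := Matrix.toLin'.surjective X
  exact ⟨A, fun v i => by simp [Matrix.mulVec, dotProduct, add_assoc],
    by simp [Matrix.trace, add_assoc]⟩

theorem cl5_std (h2 : (2 : F) ≠ 0) : Cl5 (spB (Fin 2) F) (q5 F) (psi5 F) 1 where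
  hA := spB_isAlt _ _
  hB := spB_nondegenerate _ _
  nt := inferInstance
  h2 := h2
  hκ := one_ne_zero
  hQ x hx := by
    have e : ∀ y : Fin 5 → F,
        2 * x 0 * y 0 + x 1 * y 2 + x 2 * y 1 - x 3 * y 4 - x 4 * y 3 = 0 := fun y => by
      rw [← hx y]; simp only [polar, q5_apply, Pi.add_apply]; ring
    have e0 := e (Pi.single 0 1)
    have e1 := e (Pi.single 1 1)
    have e2 := e (Pi.single 2 1)
    have e3 := e (Pi.single 3 1)
    have e4 := e (Pi.single 4 1)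
    ext i
    fin_cases i <;> simp_all
  five := by simp
  sq x v := by ext (i | i) <;> fin_cases i <;> simp [psi5_apply, q5_apply] <;> ring
  adj x u v := by simp [spB_eq_sum, psi5_apply]; ring
  tr x := by
    rw [LinearMap.trace_eq_matrix_trace F (Pi.basisFun F _), Matrix.trace]
    simp [LinearMap.toMatrix_apply, psi5_apply]
  surj X hX ht := by
    obtain ⟨A, hA, hA'⟩ := exists_mat X
    rw [hA'] at ht
    have e := fun i j => hX (Pi.single i 1) (Pi.single j 1)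
    have a1 := e (.inl 0) (.inl 0)
    have a2 := e (.inl 0) (.inl 1)
    have a3 := e (.inl 1) (.inl 1)
    have b1 := e (.inr 0) (.inr 0)
    have b2 := e (.inr 0) (.inr 1)
    have b3 := e (.inr 1) (.inr 1)
    have c1 := e (.inl 0) (.inr 0)
    have c2 := e (.inl 0) (.inr 1)
    have c3 := e (.inl 1) (.inr 0)
    have c4 := e (.inl 1) (.inr 1)
    simp [spB_eq_sum, hA] at a1 a2 a3 b1 b2 b3 c1 c2 c3 c4
    refine ⟨![A (.inl 0) (.inl 0), A (.inl 0) (.inl 1), A (.inl 1) (.inl 0), A (.inl 0) (.inr 1),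
      A (.inr 0) (.inl 1)], LinearMap.ext fun v => funext fun i => mul_left_cancel₀ h2 ?_⟩
    rw [hA]
    rcases i with i | i <;> fin_cases i <;> simp [psi5_apply, -mul_eq_mul_left_iff]
    · linear_combination v (.inr 0) * b1
    · linear_combination v (.inl 1) * (-ht - c1 - c4) + 2 * v (.inr 0) * b2 + v (.inr 1) * b3
    · linear_combination -v (.inl 0) * a1 + 2 * v (.inr 0) * c1 + 2 * v (.inr 1) * c2
    · linear_combination -2 * v (.inl 0) * a2 - v (.inl 1) * a3 + 2 * v (.inr 0) * c3 +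
        v (.inr 1) * (-ht - c1 + c4)
  cent X hX := by
    obtain ⟨A, hA, -⟩ := exists_mat X
    have e := fun i j => funext_iff.1 (hX (Pi.single i 1) (Pi.single j 1))
    have a1 := e 1 (.inl 1)
    have a2 := e 2 (.inl 0)
    have a3 := e 3 (.inr 1)
    have a4 := e 3 (.inr 0)
    have a5 := e 4 (.inl 1)
    have a6 := e 4 (.inl 0)
    simp [hA, psi5_apply] at a1 a2 a3 a4 a5 a6
    obtain ⟨⟨⟨b1, b2⟩, b3, -⟩, ⟨b4, -⟩, -, b5⟩ := And.intro a1 a2
    obtain ⟨⟨⟨b6, -⟩, -, b7⟩, ⟨-, b8⟩, b9, -⟩ := And.intro a3 a4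
    obtain ⟨⟨⟨c1, c2⟩, -, c3⟩, ⟨c4, c5⟩, c6, -⟩ := And.intro a5 a6
    refine ⟨A (.inl 0) (.inl 0), fun v => funext fun i => ?_⟩
    rw [hA]
    rcases i with i | i <;> fin_cases i <;>
      simp [← b1, b2, b3, b4, b5, ← b6, b7, ← b8, b9, c1, c2, c3, c4, c5, neg_eq_iff_eq_neg.1 c6]

end CfsgLib.Sp4O5
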