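import Mathlib
import Cfsg.Agent.Lib.OMax.PlaneA

/-!
Overgroups of the stabiliser of a non-degenerate plane in an orthogonal group of dimension at least
five, `q ≥ 5` odd, which contain a class of reflections in the plane and its complement.
-/

set_option autoImplicit false

namespace CfsgLib.Sp4O5

open CfsgLib.Forms CfsgLib.ClMax CfsgLib.RootMax CfsgLib.OrthE CfsgLib.OMax Module QuadraticMap

variable {F V : Type*} [Field F] [AddCommGroup V] [Module F V] {Q : QuadraticForm F V}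

theorem exists_conic_ne [Finite F] (h2 : (2 : F) ≠ 0) (hB : BigS F) {α ε d : F} (hα : α ≠ 0)
    (hε : ε ≠ 0) (hd : d ≠ 0) : ∃ l s : F, l ≠ 0 ∧ l ≠ 2 ∧ α * l ^ 2 + ε * s ^ 2 = d := by
  have key : ∀ l s : F, l ≠ 0 → α * l ^ 2 + ε * s ^ 2 = d →
      ∃ l s : F, l ≠ 0 ∧ l ≠ 2 ∧ α * l ^ 2 + ε * s ^ 2 = d := fun l s hl h => by
    by_cases e : l = 2
    · refine ⟨-l, s, neg_ne_zero.2 hl, fun e' => mul_ne_zero h2 h2 ?_, by linear_combination h⟩
      linear_combination -e - e'
    · exact ⟨l, s, hl, e, h⟩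
  have := Fintype.ofFinite F
  obtain ⟨l, s, h⟩ : ∃ l s : F, α * l ^ 2 + ε * s ^ 2 = d := by
    obtain ⟨l, s, h⟩ := FiniteField.exists_root_sum_quadratic (R := F)
      (f := Polynomial.C α * Polynomial.X ^ 2)
      (g := Polynomial.C ε * Polynomial.X ^ 2 - Polynomial.C d)
      (Polynomial.degree_C_mul_X_pow 2 hα)
      (by rw [Polynomial.degree_sub_C] <;> simp [Polynomial.degree_C hε]) (by
        rw [← Nat.odd_iff, ← Nat.not_even_iff_odd, Nat.even_iff,
          ← FiniteField.even_card_iff_char_two]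
        intro h
        have := ringChar.Nat.cast_ringChar (R := F)
        rw [h] at this
        exact h2 (by exact_mod_cast this))
    exact ⟨l, s, by simpa [add_sub_assoc', sub_eq_zero] using h⟩
  by_cases hl : l = 0
  swap
  · exact key l s hl h
  subst hl
  have hs : s ≠ 0 := by rintro rfl; exact hd (by simpa using h.symm)
  obtain ⟨m, hm, h0⟩ := hB.exists_ne α hε
  obtain ⟨l, hl⟩ : ∃ l, l * (α + m * m * ε) = 2 * ε * s * m := ⟨_, div_mul_cancel₀ _ h0⟩
  refine key l (s - m * l) ?_ (by linear_combination h + l * hl)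
  rintro rfl
  simp [h2, hε, hs, hm] at hl

/-- The hypotheses on the overgroup. -/
structure PlN (P : Submodule F V) (N : Subgroup (O Q)) (δ : F) : Prop where
  hQ : Nondeg Q
  h2 : (2 : F) ≠ 0
  h5 : 5 ≤ Nat.card F
  dim : 5 ≤ finrank F V
  pl : Pl Q P
  hδ : δ ≠ 0
  hH : ∀ g ∈ commutator (O Q), (∀ v ∈ P, g.1 v ∈ P) → g ∈ N
  hR : ∀ v, v ∈ P ∨ v ∈ perp Q P → Q v = δ → RC N v

namespace PlN

variable [Finite F] [FiniteDimensional F V] {P : Submodule F V} {N : Subgroup (O Q)} {δ : F}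
  (h : PlN P N δ)
include h

omit [FiniteDimensional F V] in
theorem big : BigS F := big_of_card (by have := h.h5; omega)

omit [Finite F] in
theorem nd : ND Q (perp Q P) := nd_perp h.hQ h.pl.nd

omit [Finite F] in
theorem three : 3 ≤ finrank F (perp Q P) := by
  have := finrank_perp h.hQ P
  have := h.pl.two
  have := h.dim
  omega

omit [Finite F] in
theorem supp' : Supp N (perp Q P) := fun g hg e => h.hH g hg fun v hv => by
  rwa [e v ((perp_perp h.hQ P).symm ▸ hv)]

omit [Finite F] in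
theorem supp : Supp N P := fun g hg e => h.hH g hg fun _ hv => mem_of_fix h.hQ e hv

theorem rirr : RIrr Q P := by
  by_cases hA : Aniso Q P
  · exact h.pl.rirr_aniso hA (h.pl.rich (Or.inr ⟨hA, by have := h.h5; omega⟩))
  · exact h.pl.rirr_hyp hA h.h5

omit [Finite F] in
theorem E_le_of_full {Z : Submodule F V} (hZ : ND Q Z) (hP : Z = P ∨ Z = perp Q P) {z : V}
    (hz : z ∈ Z) (hz0 : z ≠ 0) (hs : Q z = 0) (hF : EFull N z) : E Q ≤ N := by
  obtain ⟨y, hy, hys, hzy⟩ := exists_partner hZ hz hz0 hs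
  have hc : Q (z + δ • y) = δ := by simp [Q_add, Q_smul, hs, hys, hzy]
  have hr := h.hR (z + δ • y) (by
    rcases hP with rfl | rfl
    · exact Or.inl (Submodule.add_mem _ hz (Submodule.smul_mem _ _ hy))
    · exact Or.inr (Submodule.add_mem _ hz (Submodule.smul_mem _ _ hy))) hc
  have e : (refl Q (z + δ • y)).1 z = -δ • y := by
    rw [refl_ap, hc, polar_add_left, polar_smul_left, pself hs, polar_comm Q y z, hzy, smul_eq_mul,
      mul_one, zero_add, inv_mul_cancel₀ h.hδ]
    module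
  have h1 := hF.conj hr.2
  rw [e] at h1
  exact E_le_of_two h.hQ (by have := h.dim; omega) hs (by simp [Q_smul, hys]) hF h1
    (by simp [hzy, h.hδ])

theorem E_le_of_ea {z a b : V} (hz : z ∈ perp Q P) (hz0 : z ≠ 0) (ha : a ∈ P) (ha0 : a ≠ 0)
    (hb : b ∈ perp Q P) (h1 : EA N z (a + b)) : E Q ≤ N := by
  have hs := h1.sing
  have hI := h.supp'.ein h.hQ h.dim
  have za : ∀ a ∈ P, polar Q z a = 0 := fun a ha => pc (hz a ha)
  have h3 : EA N z a := (h1.sub (hI z hz hs b hb (by
    simpa [za a ha] using h1.orth))).congr (by abel)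
  obtain ⟨y, hy, hys, hzy⟩ := exists_partner h.nd hz hz0 hs
  have ya : ∀ a ∈ P, polar Q y a = 0 := fun a ha => pc (hy a ha)
  have sq : ∀ t : F, EA N z ((t * t) • a) := fun t => by
    by_cases ht : t = 0
    · simpa [ht] using EA.zero hs
    obtain ⟨k, hk, e1, e2⟩ := exists_tor h.hQ hs hys hzy ht
    have := h3.conj (h.hH k hk fun v hv => by rwa [e2 v (za v hv) (ya v hv)])
    rw [e1, e2 a (za a ha) (ya a ha)] at this
    exact this.of_smul_left (mul_ne_zero ht ht)
  have all := h.rirr (fun a => ∀ t : F, EA N z (t • a))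
    (fun u v hu hv t => ((hu t).sub (hv t)).congr (smul_sub _ _ _).symm)
    (fun c hc hc0 u hu hp t => by
      have q1 : Q (z + Q c • y) = Q c := by simp [Q_add, Q_smul, hs, hys, hzy]
      have q2 : Q (z + δ • y) = δ := by simp [Q_add, Q_smul, hs, hys, hzy]
      have m1 := Submodule.add_mem _ hz (Submodule.smul_mem _ (Q c) hy)
      have m2 := Submodule.add_mem _ hz (Submodule.smul_mem _ δ hy)
      have k1 : refl Q c * refl Q (z + Q c • y) ∈ N :=
        h.hH _ (refl_mul_refl_mem' h.hQ hc0 q1) fun v hv => by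
          rw [O_mul_apply, refl_apply_of_orth (m1 v hv), refl_ap]
          exact P.sub_mem hv (P.smul_mem _ hc)
      have := (hp (t * (Q c / δ))).conj (N.mul_mem k1 (h.hR _ (Or.inr m2) q2).2)
      have e1 : (refl Q c * refl Q (z + Q c • y) * refl Q (z + δ • y)).1 z = (δ / Q c) • z := by
        rw [O_mul_apply, O_mul_apply, refl_ap (z + δ • y), q2, polar_add_left, polar_smul_left,
          pself hs, polar_comm Q y z, hzy, smul_eq_mul, mul_one, zero_add, inv_mul_cancel₀ h.hδ,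
          show z - (1 : F) • (z + δ • y) = -δ • y by module, map_smul, refl_ap (z + Q c • y), q1,
          polar_add_left, polar_smul_left, pself hys, hzy, smul_zero, add_zero, mul_one,
          show y - (Q c)⁻¹ • (z + Q c • y) = -(Q c)⁻¹ • z by
            rw [smul_add, smul_smul, inv_mul_cancel₀ hc0]; module,
          map_smul, map_smul, refl_apply_of_orth (za c hc), smul_smul]
        congr 1
        ring
      have hu' := P.smul_mem (t * (Q c / δ)) hu
      rw [e1, O_mul_apply, O_mul_apply, refl_apply_of_orth (m2 _ hu'),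
        refl_apply_of_orth (m1 _ hu'), map_smul] at this
      refine (this.of_smul_left (div_ne_zero h.hδ hc0)).congr ?_
      rw [smul_smul]
      congr 1
      have := h.hδ
      field_simp) a ha ha0
    (fun t => ((sq ((t + 1) / 2)).sub (sq ((t - 1) / 2))).congr (by
      rw [← sub_smul]
      congr 1
      have := h.h2
      field_simp
      ring))
  refine h.E_le_of_full h.nd (Or.inr rfl) hz hz0 hs fun w hw => ?_
  obtain ⟨b, hb, a, ha, rfl⟩ := decomp h.hQ h.pl.nd w
  exact (hI z hz hs b hb (by simpa [za a ha] using hw)).add (by simpa using all a ha 1)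

theorem E_le_sing {a b : V} (ha : a ∈ P) (ha0 : a ≠ 0) (hb : b ∈ perp Q P) (hb0 : b ≠ 0)
    (hs : Q b = 0) (hv : RC N (a + b)) : E Q ≤ N := by
  obtain ⟨y, hy, hys, hby⟩ := exists_partner h.nd hb hb0 hs
  obtain ⟨t, ht, ht1⟩ := h.big
  obtain ⟨k, hk, e1, e2⟩ := exists_tor h.hQ hs hys hby ht
  have e3 : ∀ v ∈ P, k.1 v = v := fun v hv => e2 v (pc (hb v hv)) (pc (hy v hv))
  have h1 := hv.conj (h.hH k hk fun v hv => by rwa [e3 v hv])
  rw [map_add, e1, e3 a ha] at h1
  have h3 := hv.ea (x := (t * t - 1) • b) (by simp [Q_smul, hs])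
    (by simp [pself hs, pc (hb a ha)]) (h1.congr (by module))
  rw [smul_add] at h3
  exact h.E_le_of_ea (Submodule.smul_mem _ _ hb) (smul_ne_zero (sub_ne_zero.2 ht1) hb0)
    (P.smul_mem _ ha) (smul_ne_zero (inv_ne_zero hv.1) ha0) (Submodule.smul_mem _ _ hb) h3

theorem E_le_sing' {a b : V} (ha : a ∈ P) (ha0 : a ≠ 0) (hb : b ∈ perp Q P) (hb0 : b ≠ 0)
    (hs : Q a = 0) (hv : RC N (a + b)) : E Q ≤ N := by
  obtain ⟨y, hy, hys, hay⟩ := exists_partner h.pl.nd ha ha0 hs
  obtain ⟨t, ht, ht1⟩ := h.big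
  obtain ⟨k, hk, e1, e2⟩ := exists_tor h.hQ hs hys hay ht
  have e3 : ∀ v ∈ perp Q P, k.1 v = v := fun v hv => e2 v (hv a ha) (hv y hy)
  have h1 := hv.conj (h.supp k hk e3)
  rw [map_add, e1, e3 b hb] at h1
  have h3 := (hv.ea (x := (t * t - 1) • a) (by simp [Q_smul, hs])
    (by simp [pself hs, mem_perp.1 hb a ha]) (h1.congr (by module))).of_smul_left (sub_ne_zero.2 ht1)
  have h4 := EA.of_irr h.hQ h.nd h.three (h.supp'.ein h.hQ h.dim)
    ((perp_perp h.hQ P).symm ▸ ha) h3 (by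
      rw [perp_perp h.hQ, Submodule.smul_mem_iff _ (sub_ne_zero.2 ht1),
        Submodule.smul_mem_iff _ (inv_ne_zero hv.1), Submodule.add_mem_iff_right _ ha]
      exact fun hh => hb0 (Submodule.disjoint_def.1 h.pl.nd b hh hb))
  refine h.E_le_of_full h.pl.nd (Or.inl rfl) ha ha0 hs fun w hw => ?_
  obtain ⟨b, hb, p, hp, rfl⟩ := decomp h.hQ h.pl.nd w
  have hp' : p ∈ Submodule.span F {a} := by
    by_contra hn
    exact ha0 (h.pl.eq_zero ha ha0 hp hn ha (pself hs) (by simpa [mem_perp.1 hb a ha] using hw))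
  obtain ⟨c, rfl⟩ := Submodule.mem_span_singleton.1 hp'
  exact (h4 b hb).add_self c

theorem E_le_gen {a b : V} (ha : a ∈ P) (ha0 : Q a ≠ 0) (hb : b ∈ perp Q P) (hb0 : Q b ≠ 0)
    (hv : RC N (a + b)) : E Q ≤ N := by
  obtain ⟨z, hz, hz0, hs, -⟩ := exists_sing_orth h.hQ (perp Q P) [] (by simpa using h.three)
  obtain ⟨y, hy, hys, hzy⟩ := exists_partner h.nd hz hz0 hs
  obtain ⟨e, ⟨he, he'⟩, hε⟩ := exists_nonsing_mem h.hQ (nd_inf_perp_pair h.nd hz hy hs hys hzy)
    le_rfl (by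
      classical
      have h0 := finrank_inf_perp h.hQ (perp Q P) {z, y}
      have h1 : ({z, y} : Finset V).card ≤ 2 := Finset.card_le_two
      have := h.three
      rw [Finset.coe_pair] at h0
      omega)
  have hze := (mem_perp_pair.1 he').1
  have hab := mem_perp.1 hb a ha
  have hd : Q (a + b) = Q a + Q b := by rw [Q_add, hab, add_zero]
  obtain ⟨l, s, hl, hl2, e1⟩ := exists_conic_ne h.h2 h.big ha0 hε hv.1
  obtain ⟨b', hb', q1, q2⟩ := exists_norm_polar h.hQ h.h2 h.nd h.three hb hb0 (Q b)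
    ((1 - l) * Q (a + b) - 2 * Q a)
  have mv : ∀ {a b b' : V}, a ∈ P → b ∈ perp Q P → b' ∈ perp Q P → Q b ≠ 0 → Q b' = Q b →
      RC N (a + b) → RC N (a + b') := fun {a b b'} ha hb hb' h0 h1 hv => by
    obtain ⟨k, hk, e2, e3⟩ := exists_omega_move h.hQ h.dim h.h2 h.nd h.three hb hb' h0 h1
    have := hv.conj (h.supp' k hk e2)
    rwa [map_add, e3, e2 a ((perp_perp h.hQ P).symm ▸ ha)] at this
  have h1 : RC N (l • a + (b' - (1 - l) • b)) := (hv.rf (mv ha hb hb' hb0 q1 hv)).congr (by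
    have : (Q (a + b))⁻¹ * polar Q (a + b) (a + b') = 1 - l := by
      rw [polar_add_left, polar_add_right, polar_add_right, polar_self', mem_perp.1 hb' a ha, pc hab, q2,
        inv_mul_eq_iff_eq_mul₀ hv.1]
      ring
    rw [this]; module)
  have m1 := Submodule.sub_mem _ hb' (Submodule.smul_mem _ (1 - l) hb)
  have q3 : Q (b' - (1 - l) • b) = Q e * s ^ 2 := by
    rw [Q_sub, Q_smul, polar_smul_right, polar_comm Q b' b, q1, q2, smul_eq_mul]
    rw [hd] at e1 ⊢
    linear_combination -e1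
  have la := P.smul_mem l ha
  have la0 := smul_ne_zero hl (ne_zero_of_Q ha0)
  by_cases hs0 : s = 0
  · refine h.E_le_sing la la0 m1 (fun h0 => ?_) (by simp [q3, hs0]) h1
    rw [sub_eq_zero.1 h0, Q_smul] at q1
    exact mul_ne_zero (mul_ne_zero hl (sub_ne_zero.2 hl2)) hb0 (by linear_combination q1)
  have q4 : Q (b' - (1 - l) • b) ≠ 0 := by simp [q3, hε, hs0]
  have se := Submodule.smul_mem _ s he
  have h3 := mv la m1 se q4 (by rw [q3, Q_smul]; ring) h1
  have h4 := mv la m1 (Submodule.add_mem _ se hz) q4 (by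
    rw [q3, Q_add, Q_smul, hs, polar_smul_left, pc hze]; simp; ring) h1
  have h5 := h3.ea hs (by simp [hze, pc (hz a ha)]) (h4.congr (add_assoc _ _ _).symm)
  rw [smul_add] at h5
  exact h.E_le_of_ea hz hz0 (P.smul_mem _ la) (smul_ne_zero (inv_ne_zero h3.1) la0)
    (Submodule.smul_mem _ _ se) h5

theorem E_le {g : O Q} (hg : g ∈ N) (hn : ¬ ∀ v ∈ P, g.1 v ∈ P) : E Q ≤ N := by
  have h0 : P ≠ ⊥ := by
    intro e
    have := h.pl.two
    rw [e, finrank_bot] at this
    omega
  have h1 : perp Q P ≠ ⊥ := by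
    intro e
    have := h.three
    rw [e, finrank_bot] at this
    omega
  have hD := od_pair h.hQ h.pl.nd h0 h1
  by_cases hc : ∀ c, Cl Q (perp Q P) δ c → InD ![P, perp Q P] (g.1 c)
  · obtain ⟨j, hj⟩ := hD.conn_part (y := g) h.hδ (i := 1) h.three
      (diam_odd h.hQ h.h2 h.nd (Or.inr ⟨h.three, h.big⟩)) hc
    fin_cases j
    · have h3 := Submodule.finrank_mono (show (perp Q P).map (g.1 : V →ₗ[F] V) ≤ P by
        rintro _ ⟨v, hv, rfl⟩; exact hj v hv)
      rw [LinearEquiv.finrank_map_eq, h.pl.two] at h3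
      have := h.three
      omega
    · exact absurd (by simpa [perp_perp h.hQ] using stab_perp (W := perp Q P) hj) hn
  push Not at hc
  obtain ⟨c, ⟨c1, c2, s, c3⟩, hc⟩ := hc
  have hs : s ≠ 0 := by rintro rfl; exact mul_ne_zero h.hδ c2 (by simpa using c3)
  have h3 := (h.hR ((δ / s) • c) (Or.inr (Submodule.smul_mem _ _ c1)) (by
    rw [Q_smul]; field_simp; linear_combination δ * c3)).of_smul.conj hg
  obtain ⟨b, hb, a, ha, e⟩ := decomp h.hQ h.pl.nd (g.1 c)
  rw [e] at hc h3
  have ha0 : a ≠ 0 := by rintro rfl; exact hc ⟨1, by simpa using hb⟩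
  have hb0 : b ≠ 0 := by rintro rfl; exact hc ⟨0, by simpa using ha⟩
  rw [add_comm] at h3
  by_cases s1 : Q b = 0
  · exact h.E_le_sing ha ha0 hb hb0 s1 h3
  by_cases s2 : Q a = 0
  · exact h.E_le_sing' ha ha0 hb hb0 s2 h3
  · exact h.E_le_gen ha s2 hb s1 h3

end PlN

end CfsgLib.Sp4O5
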