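import Mathlib
import Cfsg.Agent.Lib.Sp4O5.Bridge
import Cfsg.Agent.Lib.Sp4O5.Plane
import Cfsg.Agent.Lib.ClMax.SpLag
import Cfsg.Agent.Lib.ClMax.SpGU

/-!
`GL₂(q).2` and `GU₂(q).2` are maximal in `Sp₄(q)` for `q ≥ 5` odd.
-/

set_option autoImplicit false

namespace CfsgLib.Sp4O5

open CfsgLib.Forms CfsgLib.ClMax CfsgLib.OrthE CfsgLib.OMax Module QuadraticMap

universe u

variable {F V W : Type*} [Field F] [AddCommGroup V] [Module F V] [AddCommGroup W] [Module F W]
  {B : LinearMap.BilinForm F V} {Q : QuadraticForm F W} {Ψ : W →ₗ[F] End F V} {κ : F}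

/-- `g` commutes with `J` up to sign. -/
def NJ (J : End F V) (g : V ≃ₗ[F] V) : Prop :=
  (∀ v, g (J v) = J (g v)) ∨ ∀ v, g (J v) = -J (g v)

/-- A skew-adjoint endomorphism with non-zero scalar square. -/
structure Skew (B : LinearMap.BilinForm F V) (J : End F V) (c : F) : Prop where
  hc : c ≠ 0
  sq : ∀ v, J (J v) = c • v
  adj : ∀ u v, B (J u) v = -B u (J v)

variable {J : End F V} {c : F}

theorem Skew.not_self (s : Skew B J c) (hB : B.Nondegenerate) [Nontrivial V] (h2 : (2 : F) ≠ 0)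
    (h : ∀ u v, B (J u) v = B u (J v)) : False := by
  obtain ⟨v, hv⟩ := exists_ne (0 : V)
  have : J (J v) = 0 := hB.1 _ fun u => mul_left_cancel₀ h2 (by
    linear_combination h (J v) u + s.adj (J v) u)
  exact smul_ne_zero s.hc hv (s.sq v ▸ this)

theorem Skew.exists_not [FiniteDimensional F V] (s : Skew B J c) (hA : B.IsAlt)
    (hB : B.Nondegenerate) (h2 : (2 : F) ≠ 0) (h3 : 3 ≤ finrank F V) :
    ∃ g ∈ spIso B, ¬ NJ J g := by
  by_contra hh
  push Not at hh
  have key : ∀ z v, B z (J v) • z = B z v • J z := fun z => by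
    rcases hh _ (tv_mem hA z 1) with h | h
    · exact fun v => by simpa [tv_apply] using h v
    obtain ⟨v, -, h1, h4⟩ := ClMax.exists_orth_not_mem B ⊤ ⊥ ![z, J z] (by simp; omega)
    have h5 : B z (J v) = 0 := by simpa [s.adj] using h1 1
    have h6 := congrArg J (h v)
    simp only [tv_apply, h5, show B z v = 0 from h1 0, mul_zero, zero_smul, add_zero, map_neg,
      s.sq, map_smul] at h6
    have h7 : (2 * c) • v = 0 := by linear_combination (norm := module) h6
    exact absurd ((smul_eq_zero_iff_right (mul_ne_zero h2 s.hc)).1 h7) (by simpa using h4)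
  obtain ⟨f, e, -, -, hef⟩ := ClMax.exists_pair_orth hA hB h3 0
  have h1 := key e f
  have h4 := key f e
  rw [hef, one_smul] at h1
  rw [← h1, ← hA.neg_eq e f, hef] at h4
  have h5 := s.adj e f
  rw [← h1] at h5
  have h6 : B e (J f) = 0 := mul_left_cancel₀ h2 (by
    simp only [map_smul, LinearMap.smul_apply, hef, smul_eq_mul] at h5
    linear_combination h5)
  have h7 := s.sq e
  rw [← h1, h6, zero_smul, map_zero] at h7
  have : e = 0 := (smul_eq_zero_iff_right s.hc).1 h7.symm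
  simp [this] at hef

namespace Cl5

variable (h : Cl5 B Q Ψ κ) (s : Skew B J c)
include h s

theorem exists_ad (y : W) : ∃ x, ∀ v, Ψ x v = J (Ψ y v) - Ψ y (J v) := by
  obtain ⟨x, hx⟩ := h.surj (J * Ψ y - Ψ y * J) (fun u v => by simp [s.adj, h.adj]; ring)
    (by rw [map_sub, LinearMap.trace_mul_comm, sub_self])
  exact ⟨x, fun v => by simp [hx]⟩

theorem exists_anti : ∃ x, Q x ≠ 0 ∧ ∀ v, J (Ψ x v) = -Ψ x (J v) := by
  have := h.nt
  choose D hD using h.exists_ad s
  have a1 : ∀ y v, J (Ψ (D y) v) = -Ψ (D y) (J v) := fun y v => by simp [hD, s.sq]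
  obtain ⟨y, hy⟩ : ∃ y, D y ≠ 0 := by
    by_contra hh
    push Not at hh
    obtain ⟨a, ha⟩ := h.cent J fun x v => sub_eq_zero.1 (by rw [← hD, hh]; simp)
    exact s.not_self h.hB h.h2 fun u v => by simp [ha]
  obtain ⟨z, hz⟩ := h.hQ.exists_ne hy
  have a2 : polar Q (D y) (D (D z)) = 4 * c * polar Q (D y) z :=
    mul_left_cancel₀ h.hκ (h.smul_cancel fun v => by
      have e1 := h.anti (D y) (D (D z)) v
      have e2 := h.anti (D y) z v
      have e3 := congrArg J (h.anti (D y) z (J v))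
      have e4 := a1 y (Ψ z (J v))
      have e5 := congrArg (fun w => J (Ψ z w)) (a1 y v)
      simp only [hD (D z), hD z, map_sub, map_smul, map_neg, s.sq] at e1 e3 e5
      linear_combination (norm := module) -e1 + (2 * c) • e2 + (2 : F) • e3 - (2 : F) • e4 -
        (2 : F) • e5)
  by_cases h1 : Q (D y) = 0
  swap
  · exact ⟨_, h1, a1 y⟩
  by_cases h3 : Q (D (D z)) = 0
  swap
  · exact ⟨_, h3, a1 _⟩
  refine ⟨D y + D (D z), ?_, fun v => by simp [a1]; abel⟩
  rw [Q_add, h1, h3, a2, show (4 : F) = 2 * 2 by norm_num]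
  simp [h.h2, s.hc, hz]

theorem exists_pair : ∃ x y, ∃ l : F, Q x ≠ 0 ∧ Q y ≠ 0 ∧ polar Q x y = 0 ∧
    ∀ v, J v = l • Ψ y (Ψ x v) := by
  obtain ⟨x, hx, e⟩ := h.exists_anti s
  obtain ⟨y, hy⟩ := h.exists_ad s x
  have hy : ∀ v, Ψ y v = (2 : F) • J (Ψ x v) := fun v => by rw [hy, e]; module
  have := h.hκ
  have := h.h2
  refine ⟨x, y, (2 * (κ * Q x))⁻¹, hx, fun h0 => ?_, mul_left_cancel₀ h.hκ (h.smul_cancel fun v => ?_),
    fun v => ?_⟩
  · have := h.smul_cancel (a := -(2 * 2 * c * (κ * Q x))) (b := 0) fun v => by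
      have e1 := h.sq y v
      rw [hy, hy, map_smul, ← neg_neg (Ψ x (J _)), ← e] at e1
      simp only [h0, h.sq, map_smul, map_neg, s.sq] at e1
      linear_combination (norm := module) e1
    simp_all [s.hc]
  · have e1 := h.anti x y v
    rw [hy, hy, map_smul, ← neg_neg (Ψ x (J _)), ← e] at e1
    linear_combination (norm := module) -e1
  · rw [hy, h.sq, map_smul, smul_smul, smul_smul]
    rw [show (2 * (κ * Q x))⁻¹ * 2 * (κ * Q x) = 1 by field_simp, one_smul]

theorem full_skew [Finite F] (h5 : 5 ≤ Nat.card F) {M : Subgroup (V ≃ₗ[F] V)} (hM : M ≤ spIso B)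
    (hH : ∀ g ∈ spIso B, NJ J g → g ∈ M) {g : V ≃ₗ[F] V} (hg : g ∈ M) (hn : ¬ NJ J g) (z : V) :
    Full B M z := by
  have := h.fd
  obtain ⟨x, y, l, hx, hy, hxy, e⟩ := h.exists_pair s
  have hP : Pl Q (Submodule.span F {x, y}) := by
    refine ⟨nd_iff.2 fun w hw h0 => ?_, ?_⟩
    · obtain ⟨a, b, rfl⟩ := Submodule.mem_span_pair.1 hw
      have h1 := h0 x (Submodule.subset_span (by simp))
      have h3 := h0 y (Submodule.subset_span (by simp))
      simp [hxy, pc hxy, hx, hy, h.h2] at h1 h3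
      simp [h1, h3]
    · rw [Submodule.span_insert, Submodule.finrank_sup_span_singleton fun hh => ?_,
        finrank_span_singleton (ne_zero_of_Q hx)]
      obtain ⟨a, rfl⟩ := Submodule.mem_span_singleton.1 hh
      simp [hx, h.h2] at hxy
      simp [hxy] at hy
  have key : ∀ (g : V ≃ₗ[F] V) (k : O Q), Rel Ψ g 1 k →
      (∀ v ∈ Submodule.span F {x, y}, k.1 v ∈ Submodule.span F {x, y}) → NJ J g := by
    intro g k hk hs
    obtain ⟨a, b, e1⟩ := Submodule.mem_span_pair.1 (hs x (Submodule.subset_span (by simp)))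
    obtain ⟨a', b', e2⟩ := Submodule.mem_span_pair.1 (hs y (Submodule.subset_span (by simp)))
    have e3 : a * a' * Q x + b * b' * Q y = 0 := mul_left_cancel₀ h.h2 (by
      have := O_polar k x y
      rw [← e1, ← e2] at this
      simp only [polar_add_left, polar_add_right, polar_smul_left, polar_smul_right, hxy, pc hxy,
        polar_self', smul_eq_mul] at this
      linear_combination this)
    have e4 : ∀ v, g (J v) = (a * b' - a' * b) • J (g v) := fun v => by
      rw [e, e, map_smul, hk, hk, ← e1, ← e2]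
      simp only [map_add, map_smul, LinearMap.add_apply, LinearMap.smul_apply, h.sq, h.anti0 hxy]
      linear_combination (norm := module) (l * κ * e3) • g v
    have e5 : (a * b' - a' * b) * (a * b' - a' * b) = 1 :=
      mul_right_cancel₀ s.hc (h.smul_cancel fun v => by
        obtain ⟨v, rfl⟩ := g.surjective v
        have := e4 (J v)
        rw [s.sq, e4, map_smul, map_smul, s.sq] at this
        linear_combination (norm := module) -this)
    rcases mul_self_eq_one_iff.1 e5 with e6 | e6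
    · exact Or.inl fun v => by rw [e4, e6, one_smul]
    · exact Or.inr fun v => by rw [e4, e6, neg_one_smul]
  obtain ⟨k, hk⟩ := h.exists_rel (hM hg)
  refine h.full hM (hH _ (fun u v => by simp) (Or.inl fun v => by simp)) (PlN.E_le (δ := κ⁻¹)
    ⟨h.hQ, h.h2, h5, h.five.ge, hP, inv_ne_zero h.hκ, fun k hk hs => ?_, fun w hw hw' => ?_⟩
    (hk.mem_lift hg) fun hs => hn (key g k hk hs)) z
  · obtain ⟨t, ht, hr⟩ := h.exists_lift (E_eq h.hQ h.five.ge ▸ hk)
    exact hr.mem_lift (hH t ht (key t k hr hs))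
  · obtain ⟨t, ht, e1⟩ := h.exists_invol (x := w) (by rw [hw', mul_inv_cancel₀ h.hκ])
    refine h.rc (hH t ht ?_) (hw' ▸ inv_ne_zero h.hκ) e1
    rcases hw with hw | hw
    · obtain ⟨a, b, rfl⟩ := Submodule.mem_span_pair.1 hw
      refine Or.inr fun v => ?_
      simp only [e1, e, map_add, map_smul, LinearMap.add_apply, LinearMap.smul_apply, h.sq,
        h.anti0 hxy, map_neg]
      module
    · obtain ⟨h1, h3⟩ := mem_perp_pair.1 hw
      exact Or.inl fun v => by simp [e1, e, h.anti0 h1, h.anti0 h3]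

end Cl5

theorem two_ne_of_odd [Fintype F] (hodd : Odd (Fintype.card F)) : (2 : F) ≠ 0 := by
  intro h2
  have : CharP F 2 := CharTwo.of_one_ne_zero_of_two_eq_zero one_ne_zero h2
  have := FiniteField.even_card_of_char_two (ringChar.eq F 2)
  rw [Nat.odd_iff] at hodd
  omega

theorem isMaximalIn_skew {F : Type u} [Field F] [Fintype F] (h2 : (2 : F) ≠ 0)
    (h5 : 5 ≤ Fintype.card F) {J : End F (Fin 2 ⊕ Fin 2 → F)} {c : F}
    (s : Skew (spB (Fin 2) F) J c) (X : Subgroup (GL (Fin 2 ⊕ Fin 2) F))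
    (hX : ∀ g, g ∈ X ↔ NJ J (glEquiv g)) :
    Cfsg.Geo.IsMaximalIn (Cfsg.spGL 2 F) (X ⊓ Cfsg.spGL 2 F) :=
  isMaximalIn_spGL X (NJ J) (fun g _ => hX g)
    (s.exists_not (spB_isAlt _ _) (spB_nondegenerate _ _) h2 (by simp))
    fun _ hM hH _ hg hn => (cl5_std h2).full_skew s (by rwa [Nat.card_eq_fintype_card]) hM hH hg hn

/-- `GU₂(q).2` is maximal in `Sp₄(q)` for `q ≥ 5` odd. -/
theorem isMaximalIn_sp4_gu {F : Type u} [Field F] [Fintype F] (hodd : Odd (Fintype.card F))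
    (h5 : 5 ≤ Fintype.card F) (K₀ : Subalgebra F (Matrix (Fin 2 ⊕ Fin 2) (Fin 2 ⊕ Fin 2) F))
    (hK : Cfsg.Geo.IsFieldSubalgebra 2 K₀)
    (hac : Cfsg.Geo.IsAdjointClosedFor (Cfsg.sympForm 2 F) K₀)
    (hnsa : ¬ Cfsg.Geo.IsSelfAdjointFor (Cfsg.sympForm 2 F) K₀) :
    Cfsg.Geo.IsMaximalIn (Cfsg.spGL 2 F) (Cfsg.Geo.subalgebraNormalizer K₀ ⊓ Cfsg.spGL 2 F) := by
  have h2 := two_ne_of_odd hodd
  refine with_ext_field hK fun K _ _ _ _ _ hrK hdim hmem hmem' hN => ?_
  obtain ⟨σ, ω, ε, hdata⟩ := exists_GUData (K := K) (spB_isAlt (Fin 2) F)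
    (spB_nondegenerate (Fin 2) F) h2 hrK
    (fun k => by
      obtain ⟨a, ha, h⟩ := hmem k
      obtain ⟨a', ha', h'⟩ := hac a ha
      obtain ⟨k', hk'⟩ := hmem' a' ha'
      exact ⟨k', fun u v => by simpa only [spB_eq_sympForm, h, hk'] using h' u v⟩)
    (fun h => hnsa fun a ha u v => by
      obtain ⟨k, hk⟩ := hmem' a ha
      simpa only [spB_eq_sympForm, hk] using h k u v)
  have h := hdata _ le_rfl fun g hg _ => hg
  refine isMaximalIn_skew h2 h5 (J := DistribSMul.toLinearMap F _ ω) (c := ε)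
    ⟨h.ε0, h.ωω, h.adj⟩ _ fun g => (hN g _ (glEquiv_apply g)).trans ⟨fun hs => ?_, fun hs k => ?_⟩
  · obtain ⟨k, hk⟩ := hs ω
    have h1 := hk (ω • (glEquiv g).symm (Pi.single (.inl 0) 1))
    rw [h.ωω, map_smul, hk, smul_smul, LinearEquiv.apply_symm_apply, ← algebraMap_smul K, ← h.sq]
      at h1
    rcases mul_self_eq_mul_self_iff.1 (smul_left_injective K (by simp) h1) with e | e
    · exact Or.inl fun v => (hk v).trans (by rw [← e]; rfl)
    · exact Or.inr fun v => (hk v).trans (by rw [← neg_eq_iff_eq_neg.2 e, neg_smul]; rfl)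
  · obtain ⟨a, b, rfl⟩ := h.coord k
    rcases hs with hs | hs
    · refine ⟨algebraMap F K a + algebraMap F K b * ω, fun v => ?_⟩
      rw [GUData.smul_eq, GUData.smul_eq, map_add, map_smul, map_smul]
      exact congrArg _ (congrArg _ (hs v))
    · refine ⟨algebraMap F K a + algebraMap F K (-b) * ω, fun v => ?_⟩
      rw [GUData.smul_eq, GUData.smul_eq, map_add, map_smul, map_smul, neg_smul, ← smul_neg]
      exact congrArg _ (congrArg _ (hs v))

theorem LagPair.exists_skew {D E : Submodule F V} (h : LagPair B D E)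
    (hB : B.Nondegenerate) (h2 : (2 : F) ≠ 0) : ∃ J : End F V, Skew B J 1 ∧ ∀ g : V ≃ₗ[F] V,
      ((∀ v ∈ D, g v ∈ D) ∧ (∀ v ∈ E, g v ∈ E) ∨ (∀ v ∈ D, g v ∈ E) ∧ (∀ v ∈ E, g v ∈ D)) ↔
        NJ J g := by
  have hc : IsCompl D E := ⟨Submodule.disjoint_def.2 fun v h1 h3 =>
    h.eq_zero hB h1 (h.isoR v h3), codisjoint_iff.2 (eq_top_iff.2 fun v _ => Submodule.mem_sup.2 (h.sup v))⟩
  obtain ⟨J, e1, e2⟩ : ∃ J : End F V, (∀ v ∈ D, J v = v) ∧ ∀ v ∈ E, J v = -v :=
    ⟨LinearMap.ofIsCompl hc D.subtype (-E.subtype),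
      fun v hv => LinearMap.ofIsCompl_apply_left hc ⟨v, hv⟩,
      fun v hv => LinearMap.ofIsCompl_apply_right hc ⟨v, hv⟩⟩
  have m1 : ∀ v, J v = v → v ∈ D := fun v hv => by
    obtain ⟨a, ha, b, hb, rfl⟩ := h.sup v
    rw [map_add, e1 a ha, e2 b hb] at hv
    have : (2 : F) • b = 0 := by linear_combination (norm := module) -hv
    simpa [(smul_eq_zero_iff_right h2).1 this] using ha
  have m2 : ∀ v, J v = -v → v ∈ E := fun v hv => by
    obtain ⟨a, ha, b, hb, rfl⟩ := h.sup v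
    rw [map_add, e1 a ha, e2 b hb] at hv
    have : (2 : F) • a = 0 := by linear_combination (norm := module) hv
    simpa [(smul_eq_zero_iff_right h2).1 this] using hb
  refine ⟨J, ⟨one_ne_zero, fun v => ?_, fun u v => ?_⟩, fun g => ⟨?_, ?_⟩⟩
  · obtain ⟨a, ha, b, hb, rfl⟩ := h.sup v
    simp [e1 a ha, e2 b hb]
  · obtain ⟨a, ha, b, hb, rfl⟩ := h.sup u
    obtain ⟨a', ha', b', hb', rfl⟩ := h.sup v
    simp [e1 a ha, e2 b hb, e1 a' ha', e2 b' hb', h.isoL a ha a' ha', h.isoR b hb b' hb',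
      add_comm]
  · rintro (⟨h1, h3⟩ | ⟨h1, h3⟩)
    · refine Or.inl fun v => ?_
      obtain ⟨a, ha, b, hb, rfl⟩ := h.sup v
      simp [e1 a ha, e2 b hb, e1 _ (h1 a ha), e2 _ (h3 b hb)]
    · refine Or.inr fun v => ?_
      obtain ⟨a, ha, b, hb, rfl⟩ := h.sup v
      simp [e1 a ha, e2 b hb, e2 _ (h1 a ha), e1 _ (h3 b hb), add_comm]
  · rintro (h1 | h1)
    · exact Or.inl ⟨fun v hv => m1 _ (by rw [← h1, e1 v hv]),
        fun v hv => m2 _ (by rw [← h1, e2 v hv, map_neg])⟩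
    · exact Or.inr ⟨fun v hv => m2 _ (by rw [← neg_eq_iff_eq_neg, ← h1, e1 v hv]),
        fun v hv => m1 _ (by rw [← neg_inj, ← h1, e2 v hv, map_neg])⟩

/-- `GL₂(q).2` is maximal in `Sp₄(q)` for `q ≥ 5` odd. -/
theorem isMaximalIn_sp4_lag {F : Type u} [Field F] [Fintype F] (hodd : Odd (Fintype.card F))
    (h5 : 5 ≤ Fintype.card F) (D : Fin 2 → Submodule F (Fin 2 ⊕ Fin 2 → F))
    (hD : Cfsg.Geo.IsMDecomposition 2 D)
    (hts : ∀ i, Cfsg.Geo.IsTotallySingularFor (Cfsg.sympForm 2 F) (D i)) :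
    Cfsg.Geo.IsMaximalIn (Cfsg.spGL 2 F) (Cfsg.Geo.decompositionStabilizer D ⊓ Cfsg.spGL 2 F) := by
  have h2 := two_ne_of_odd hodd
  have hL : LagPair (spB (Fin 2) F) (D 0) (D 1) :=
    ⟨fun u hu v hv => by rw [spB_eq_sympForm]; exact hts 0 u hu v hv,
     fun u hu v hv => by rw [spB_eq_sympForm]; exact hts 1 u hu v hv, fun v => by
      have : D 0 ⊔ D 1 = ⊤ := by
        rw [← hD.iSup_eq_top]
        refine le_antisymm (sup_le (le_iSup D 0) (le_iSup D 1)) (iSup_le fun i => ?_)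
        fin_cases i
        · exact le_sup_left
        · exact le_sup_right
      exact Submodule.mem_sup.1 (this ▸ Submodule.mem_top)⟩
  obtain ⟨J, s, hJ⟩ := LagPair.exists_skew hL (spB_nondegenerate _ _) h2
  refine isMaximalIn_skew h2 h5 s _ fun g => Iff.trans ⟨?_, ?_⟩ (hJ _)
  · rintro ⟨σ, hσ⟩
    have h1 : ∀ i, ∀ v ∈ D i, glEquiv g v ∈ D (σ i) := fun i v hv => hσ i ▸ ⟨v, hv, rfl⟩
    have h0 := h1 0
    have h1 := h1 1
    have hne : σ 0 ≠ σ 1 := σ.injective.ne (by decide)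
    generalize σ 0 = i, σ 1 = j at h0 h1 hne
    fin_cases i <;> fin_cases j
    · exact absurd rfl hne
    · exact Or.inl ⟨h0, h1⟩
    · exact Or.inr ⟨h0, h1⟩
    · exact absurd rfl hne
  · have hd : ∀ i j, Module.finrank F (D i) = Module.finrank F (D j) := fun i j => by
      rw [hD.finrank_eq, hD.finrank_eq]
    rintro (⟨h0, h1⟩ | ⟨h0, h1⟩)
    · refine ⟨1, fun i => ?_⟩
      rw [← glEquiv_toLinearMap]
      fin_cases i
      · exact map_eq_of_forall_mem _ rfl h0
      · exact map_eq_of_forall_mem _ rfl h1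
    · refine ⟨Equiv.swap 0 1, fun i => ?_⟩
      rw [← glEquiv_toLinearMap]
      fin_cases i
      · exact map_eq_of_forall_mem _ (hd _ _) h0
      · exact map_eq_of_forall_mem _ (hd _ _) h1

end CfsgLib.Sp4O5
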