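import Mathlib
import Cfsg.Agent.Lib.ClMax.SpSub4
import Cfsg.Agent.Lib.Sp4O5.Skew

/-!
Subfield subgroups of `Sp_{2m}(q)` in odd characteristic, down to `m = 2`.
-/

set_option autoImplicit false

namespace CfsgLib.Sp4O5

open CfsgLib.Forms CfsgLib.ClMax Matrix

universe u

variable {F : Type*} [Field F] {V : Type*} [AddCommGroup V] [Module F V]
  {K : Type*} [Field K] [Algebra K F] {V₀ : Type*} [AddCommGroup V₀] [Module K V₀]
  {B : LinearMap.BilinForm F V} {B₀ : LinearMap.BilinForm K V₀}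
  {j : V₀ →ₛₗ[algebraMap K F] V} {M : Subgroup (V ≃ₗ[F] V)} {h : RatData B B₀ j M}

theorem two_K (h2 : (2 : F) ≠ 0) : (2 : K) ≠ 0 := fun e =>
  h2 (by rw [← map_ofNat (algebraMap K F) 2, e, map_zero])

theorem pp_split (h2 : (2 : F) ≠ 0) {c d : F} (h1 : h.PP c d) : h.PP c 0 :=
  fun u w huw hu hw => ((h1.smul (two_K h2) u w huw hu hw).div h.hA (by simp [h.orth huw])
    (by simp [h.orth huw]) (h1 u w huw hu hw)).congr rfl (by rw [map_ofNat]; module)
    (by simp [h.hA.self_eq_zero])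

variable [FiniteDimensional K V₀]

theorem tt_pp (h2 : (2 : F) ≠ 0) {d : F} (h1 : h.TT d) : h.PP d 0 := by
  simpa using pp_split h2 (h.pp_one.mul h1)

theorem pp_tt (hd : 3 ≤ Module.finrank K V₀) {c c' : F} (h1 : h.PP c 0) (h3 : h.PP c' 0) :
    h.TT (2 * (c * c')) := by
  obtain ⟨u, w, huw, hu, hw⟩ := h.exists_triple hd
  obtain ⟨w', h4, h5, h6⟩ := h.exists_third huw hw
  exact h.tt_of_one hu (((h1 u w' h4 hu (h6 _ h5)).tvIn_comm h.hA (by simp [h.orth h4])
    (by simp [h.orth huw]) (h3 u w huw hu hw)).congr rfl (by simp [h.hj, h5, mul_comm]))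

variable (h) in
/-- The scalars of the short root elements. -/
def ring (h2 : (2 : F) ≠ 0) (hd : 3 ≤ Module.finrank K V₀) : Subalgebra K F where
  carrier := {c | h.PP c 0}
  mul_mem' {a b} ha hb := by
    have := (tt_pp h2 (pp_tt (h := h) hd ha hb)).smul (inv_ne_zero (two_K (K := K) h2))
    rwa [map_inv₀, map_ofNat, mul_right_comm, mul_inv_cancel₀ h2, one_mul] at this
  add_mem' ha hb := by simpa using ha.add hb
  algebraMap_mem' t := tt_pp (h := h) h2 fun u => h.hT u t

theorem mul_mem_ring (h2 : (2 : F) ≠ 0) (hd : 3 ≤ Module.finrank K V₀)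
    {x : V} (hx : TvIn B M x 1) {e w : V₀} (hew : B₀ e w = 0)
    (he : e ∉ Submodule.span K {w}) : B (j e) x * B (j w) x ∈ ring h h2 hd := by
  have n := h.hA.neg_eq
  have s := h.hA.self_eq_zero
  obtain ⟨f, hfe, hfw⟩ := exists_dual h.hA₀ h.hB₀ _ he
  have hfw := hfw w (Submodule.mem_span_singleton_self w)
  have hfe' : B (j f) (j e) = 1 := by rw [h.hj, hfe, map_one]
  have hef : B (j e) (j f) = -1 := by rw [← n, hfe']
  obtain ⟨te, hte, ee⟩ := h.tv_one e
  obtain ⟨tf, htf, ef⟩ := h.tv_one f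
  obtain ⟨a, b, rfl, hbe, hbf, α, β, rfl⟩ : ∃ a b, x = a + b ∧ B (j e) b = 0 ∧ B (j f) b = 0 ∧
      ∃ α β : F, a = α • j e + β • j f :=
    ⟨B (j f) x • j e + (-B (j e) x) • j f, x - (B (j f) x • j e + (-B (j e) x) • j f), by abel,
      by simp [s, hef], by simp [s, hfe'], _, _, rfl⟩
  set i := (te * tf * te) * (te * tf * te) with hi
  have hiM : i ∈ M := M.mul_mem (M.mul_mem (M.mul_mem hte htf) hte)
    (M.mul_mem (M.mul_mem hte htf) hte)
  have ie : i (j e) = -j e := by simp [hi, ee, ef, s, hef, hfe']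
  have i_f : i (j f) = -j f := by simp [hi, ee, ef, s, hef, hfe']
  have ib : i b = b := by simp [hi, ee, ef, hbe, hbf]
  have h1 := (hx.conj h.hM hiM).neg h.hA
  rw [map_add, map_add, map_smul, map_smul, ie, i_f, ib] at h1
  have h3 : HIn B M b ((2 : F) • (α • j e + β • j f)) 0 := by
    obtain ⟨g, hg, e1⟩ := hx
    obtain ⟨g', hg', e2⟩ := h1
    refine ⟨g * g', M.mul_mem hg hg', fun v => ?_⟩
    rw [LinearEquiv.mul_apply, e1, e2]
    simp only [map_add, map_smul, map_neg, LinearMap.add_apply, LinearMap.smul_apply,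
      LinearMap.neg_apply, smul_eq_mul, s, hef, hfe', hbe, hbf, ← n (j e) b, ← n (j f) b]
    module
  have be : B b (j e) = 0 := by rw [← n, hbe, neg_zero]
  have bf : B b (j f) = 0 := by rw [← n, hbf, neg_zero]
  have h4 := h3.conj h.hM hte
  rw [ee, ee] at h4
  have h5 : HIn B M b ((-2 * β) • j e) (-4 * β ^ 2) := by
    refine ((h4.congr (a' := b) (by simp [hbe]) rfl rfl).div h.hA (by simp [be, bf])
      (by simp [be, bf]) h3).congr rfl ?_ ?_
    · simp only [map_add, map_smul, smul_eq_mul, s, hef]; module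
    · simp only [map_add, map_smul, LinearMap.add_apply, LinearMap.smul_apply, smul_eq_mul, s, hef,
        hfe']; ring
  have h6 := h5.conj h.hM hiM
  rw [ib, map_smul, ie] at h6
  have h7 : HIn B M (j e) ((-4 * β) • b) 0 := by
    have := (h5.div h.hA (by simp [be]) (by simp [be]) h6).congr rfl
      (show _ = (-4 * β) • j e by module) (show _ = 0 by simp [s])
    simpa using hIn_smul_left.1 this.symm
  have h8 := h7.tvIn_comm h.hA (by simp [hbe]) (h.orth hew) (h.sr hew)
  have hwe : B₀ w e = 0 := by rw [← h.hA₀.neg_eq, hew, neg_zero]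
  have h9 : 2 * B ((-4 * β) • b) (j w) ∈ ring h h2 hd :=
    tt_pp h2 (h.tt_of_one (fun h0 => he (by rw [h0]; exact Submodule.zero_mem _)) h8)
  have h8K : (8 : F) ≠ 0 := by
    rw [show (8 : F) = 2 * 2 * 2 by norm_num]; simp [h2]
  have h10 := (ring h h2 hd).mul_mem ((ring h h2 hd).algebraMap_mem (-8)⁻¹) h9
  convert h10 using 1
  simp only [map_add, map_smul, LinearMap.smul_apply, smul_eq_mul, s, hef, hbe, h.orth hwe,
    ← n (j f) (j w), h.orth hfw, ← n (j w) b, map_inv₀, map_neg, map_ofNat]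
  field_simp
  ring

theorem full_odd [Finite F] [FiniteDimensional F V] (h : RatData B B₀ j M) (h2 : (2 : F) ≠ 0)
    (hd : 3 ≤ Module.finrank K V₀) (hp : (Module.finrank K F).Prime) (g : V ≃ₗ[F] V) (hg : g ∈ M)
    (hgH : ¬ ∃ c : F, c ≠ 0 ∧ ∀ v, ∃ w, g (j v) = c • j w) (x : V) : Full B M x := by
  have hs := Subalgebra.isSimpleOrder_of_finrank_prime K F hp
  rcases hs.eq_bot_or_eq_top (ring h h2 hd) with hR | hR
  · refine absurd (h.rational_of_sq g fun e v => ?_) hgH
    have hx := (h.tv_one v).conj h.hM hg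
    by_cases he : e = 0
    · simp [he]
    obtain ⟨w, hew, hw⟩ := h.exists_orth hd e
    have hwe : B₀ w e = 0 := by rw [← h.hA₀.neg_eq, hew, neg_zero]
    have h1 := mul_mem_ring (h := h) h2 hd hx hwe hw
    have h3 := mul_mem_ring (h := h) h2 hd hx (e := w + e) (w := e) (by simp [hwe, h.hA₀.self_eq_zero])
      (fun hh => hw (by simpa using Submodule.sub_mem _ hh (Submodule.mem_span_singleton_self e)))
    have := (ring h h2 hd).sub_mem h3 h1
    rw [hR, Algebra.mem_bot] at this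
    obtain ⟨k, hk⟩ := this
    exact ⟨k, by rw [hk]; simp only [map_add, LinearMap.add_apply]; ring⟩
  · have hP : ∀ c, h.PP c 0 := fun c => (hR ▸ Algebra.mem_top : c ∈ ring h h2 hd)
    obtain ⟨c, -, hc⟩ := SetLike.exists_of_lt (bot_lt_top : (⊥ : Subalgebra K F) < ⊤)
    refine h.full_of_ring_top hd (fun c u w huw => ?_)
      (c := c) (by rintro rfl; exact hc (zero_mem _)) (by rintro rfl; exact hc (one_mem _)) x
    by_cases hu : u = 0
    · exact ⟨1, M.one_mem, by simp [hu]⟩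
    by_cases hw : w ∈ Submodule.span K {u}
    · obtain ⟨t, rfl⟩ := Submodule.mem_span_singleton.1 hw
      rw [map_smulₛₗ, smul_smul, ← zero_add (_ • j u), hIn_shift, zero_add]
      exact tvIn_iff.1 (pp_tt hd (hP _) (hP _) u)
    · exact hP c u w huw hu hw

/-- Subfield subgroups of prime index are maximal in `Sp_{2m}(F)` for `m ≥ 2` and `|F|` odd. -/
theorem isMaximalIn_spGL_subfield_odd {F : Type u} [Field F] [Fintype F] (m : ℕ) (hm : 2 ≤ m)
    (hodd : Odd (Fintype.card F)) (F₀ : Subfield F) (r : ℕ)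
    (hr : r.Prime) (hcard : Fintype.card F = Nat.card F₀ ^ r) (P : GL (Fin m ⊕ Fin m) F) (ζ : F)
    (hζ : ζ ≠ 0) (hP : Cfsg.Geo.IsFormRationalStructure (Cfsg.sympForm m F) F₀ ζ P) :
    Cfsg.Geo.IsMaximalIn (Cfsg.spGL m F) (Cfsg.Geo.subfieldSubgroup F₀ P ⊓ Cfsg.spGL m F) := by
  have hr' := finrank_eq_of_card_eq_pow F₀ hcard
  refine isMaximalIn_spGL _
    (fun g => ∃ c : F, c ≠ 0 ∧ ∀ v, ∃ w, g (ratEmb F₀ P v) = c • ratEmb F₀ P w)
    (fun g _ => mem_subfieldSubgroup F₀ P g) (exists_not_rational (by omega) F₀ ?_ P hζ hP)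
    fun M hM hH g hg hgH x => (full_odd (ratData_spGL F₀ P hζ hP M hM hH) (two_ne_of_odd hodd)
      (by simp; omega) (hr' ▸ hr) g hg hgH x).of_smul_form hζ
  rintro rfl
  have : Nat.card (⊤ : Subfield F) = Fintype.card F := by
    rw [← Nat.card_eq_fintype_card]; exact Nat.card_congr Subfield.topEquiv.toEquiv
  rw [this] at hcard
  have h1 := Nat.pow_right_injective (Fintype.one_lt_card (α := F)) ((pow_one _).trans hcard)
  exact hr.one_lt.ne h1

end CfsgLib.Sp4O5
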